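import Cfsg.Agent.Transfer.NormalFour.Core
import Cfsg.Agent.Components.FStar
import Cfsg.Prelude.Def_Amalgam

/-! The key lemma. -/

set_option autoImplicit false
set_option linter.style.haveILetI false
set_option linter.unusedSectionVars false

namespace Cfsg.Agent.Transfer.NormalFour

open Cfsg
open scoped commutatorElement

variable {G : Type*} [Group G] [Finite G]

/-- An involution centralizing a subgroup of index two of a Sylow group with a unique central involution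
lies in the two-core, in a solvable group of characteristic two. -/
theorem mem_core (X : Subgroup G) [Group.IsSolvable X] (W T : Subgroup G)
    (hW : W = Cfsg.pCoreOf 2 X) (hchar : X ⊓ Subgroup.centralizer (W : Set G) ≤ W)
    (hT : IsPGroup 2 T) (hTX : T ≤ X) (hWT : W ≤ T)
    {v : G} (hv : v ^ 2 = 1) (hv1 : v ≠ 1) (hvT : v ∈ T) (hXv : ∀ x ∈ X, x * v = v * x)
    (huniq : ∀ t ∈ T, (∀ s ∈ T, t * s = s * t) → t ^ 2 = 1 → t = 1 ∨ t = v)
    {a : G} (haT : a ∈ T) (ha : a ^ 2 = 1)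
    (hC : ∀ x ∈ T, ∀ y ∈ T, a * x ≠ x * a → a * y ≠ y * a → a * (x⁻¹ * y) = (x⁻¹ * y) * a) :
    a ∈ W := by
  classical
  haveI := Fact.mk Nat.prime_two
  by_contra haW
  have hWX : W ≤ X := hW ▸ Subgroup.map_subtype_le _
  have hXW : X ≤ Subgroup.normalizer (W : Set G) := hW ▸ LocalEven.map_pCore_normalized X
  have hWp : IsPGroup 2 W := hT.to_le hWT
  set W' := Cfsg.pCore 2 ↥X with hW'
  have hmemW : ∀ {x : X}, x ∈ W' ↔ (x : G) ∈ W := fun {x} => by
    rw [hW]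
    exact ⟨fun h => ⟨x, h, rfl⟩, fun ⟨y, hy, e⟩ => Subtype.ext e ▸ hy⟩
  set π := QuotientGroup.mk' W' with hπ
  set F := Cfsg.fittingSubgroup (↥X ⧸ W') with hF
  haveI : Group.IsNilpotent F := Core.isNilpotent_fittingSubgroup _
  have hFodd : Odd (Nat.card F) := by
    rw [Nat.odd_iff, ← Nat.two_dvd_ne_zero]
    intro h2
    obtain ⟨Q⟩ : Nonempty (Sylow 2 F) := inferInstance
    have hQne : (Q : Subgroup F) ≠ ⊥ := Q.ne_bot_of_dvd_card h2
    haveI hQn : (Q : Subgroup F).Normal :=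
      Sylow.normal_of_normalizerCondition Group.normalizerCondition_of_isNilpotent Q
    haveI := Q.characteristic_of_normal hQn
    haveI : F.Normal := inferInstance
    have hn : ((Q : Subgroup F).map F.subtype).Normal := Core.normal_map_subtype_of_characteristic _
    have h3 := Core.le_pCore hn (Q.isPGroup'.map F.subtype)
    rw [Core.pCore_quotient_pCore] at h3
    exact hQne ((Subgroup.map_eq_bot_iff_of_injective _ F.subtype_injective).mp (le_bot_iff.mp h3))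
  set ab := π ⟨a, hTX haT⟩ with hab
  have habF : ab ∉ F := by
    intro h
    have h2 : ab ^ 2 = 1 := by rw [hab, ← map_pow, show (⟨a, hTX haT⟩ : X) ^ 2 = 1 from Subtype.ext ha, map_one]
    have h3 := (Nat.coprime_two_left.mpr hFodd)
    have h4 : orderOf (⟨ab, h⟩ : F) ∣ Nat.gcd 2 (Nat.card F) :=
      Nat.dvd_gcd (orderOf_dvd_of_pow_eq_one (Subtype.ext h2)) (orderOf_dvd_natCard _)
    rw [h3.gcd_eq_one, Nat.dvd_one, orderOf_eq_one_iff] at h4
    exact haW (hmemW.mp ((QuotientGroup.eq_one_iff _).mp (congrArg Subtype.val h4)))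
  obtain ⟨fb, hfb, hfne⟩ : ∃ f ∈ F, f * ab ≠ ab * f := by
    by_contra h
    push Not at h
    exact habF (Core.centralizer_fittingSubgroup_le (Subgroup.mem_centralizer_iff.mpr h))
  obtain ⟨f, rfl⟩ := QuotientGroup.mk'_surjective W' fb
  set g : X := ⁅f, ⟨a, hTX haT⟩⁆ with hgdef
  have hgF : π g ∈ F := by
    rw [hgdef, map_commutatorElement, commutatorElement_def]
    have h1 : ab * (π f)⁻¹ * ab⁻¹ ∈ F := (inferInstance : F.Normal).conj_mem _ (inv_mem hfb) _
    have h2 := mul_mem hfb h1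
    rwa [← mul_assoc, ← mul_assoc] at h2
  have hgne : π g ≠ 1 := by
    rw [hgdef, map_commutatorElement]
    exact fun e => hfne (commutatorElement_eq_one_iff_mul_comm.mp e)
  have hainv : a⁻¹ = a := inv_eq_of_mul_eq_one_right (by rw [← pow_two]; exact ha)
  have hginv : a * (g : G) * a⁻¹ = (g : G)⁻¹ := by
    rw [hgdef]
    simp only [commutatorElement_def, Subgroup.coe_mul, Subgroup.coe_inv, mul_inv_rev, inv_inv, hainv]
    simp only [mul_assoc]
    rw [← pow_two, ha, mul_one]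
  -- odd part
  obtain ⟨i, m, hm, ho⟩ : ∃ i m, Odd m ∧ orderOf g = 2 ^ i * m :=
    Nat.exists_eq_two_pow_mul_odd (orderOf_pos g).ne'
  set k : G := (g : G) ^ 2 ^ i with hk
  have hodd : Odd (orderOf k) := by
    rw [hk, orderOf_pow_of_dvd (by positivity) (by rw [Subgroup.orderOf_coe, ho]; exact Dvd.intro _ rfl),
      Subgroup.orderOf_coe, ho, Nat.mul_div_cancel_left _ (by positivity)]
    exact hm
  have hkX : k ∈ X := pow_mem g.2 _
  have hkW : k ∉ W := by
    intro h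
    apply hgne
    have h1 : π (g ^ 2 ^ i) = 1 := (QuotientGroup.eq_one_iff _).mpr (hmemW.mpr (by simpa [hk] using h))
    rw [map_pow] at h1
    have h2 : orderOf (⟨π g, hgF⟩ : F) ∣ Nat.gcd (2 ^ i) (Nat.card F) :=
      Nat.dvd_gcd (orderOf_dvd_of_pow_eq_one (Subtype.ext h1)) (orderOf_dvd_natCard _)
    rw [((Nat.coprime_two_left.mpr hFodd).pow_left i).gcd_eq_one, Nat.dvd_one, orderOf_eq_one_iff] at h2
    exact congrArg Subtype.val h2
  have hinv : a * k * a⁻¹ = k⁻¹ := by rw [hk, ← conj_pow, hginv, inv_pow]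
  obtain ⟨e, heW, he2, hecen, hek⟩ := exists_moved hWp ha (hXW (hTX haT)) (hXW hkX) hodd hinv
    (fun h => hkW (hchar ⟨hkX, Subgroup.mem_centralizer_iff.mpr fun w hw => (h w hw).symm⟩))
    (fun x hx y hy => hC x (hWT hx) y (hWT hy))
  -- the module
  let Z : Subgroup G :=
    { carrier := {x | x ∈ W ∧ x ^ 2 = 1 ∧ ∀ w ∈ W, x * w = w * x}
      one_mem' := ⟨one_mem W, one_pow 2, fun w _ => by simp⟩
      mul_mem' := by
        rintro x y ⟨hx, hx2, hxc⟩ ⟨hy, hy2, hyc⟩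
        refine ⟨mul_mem hx hy, ?_, fun w hw => ?_⟩
        · rw [(show Commute x y from hxc y hy).mul_pow, hx2, hy2, one_mul]
        · exact (Commute.mul_left (hxc w hw) (hyc w hw)).eq
      inv_mem' := by
        rintro x ⟨hx, hx2, hxc⟩
        exact ⟨inv_mem hx, by rw [inv_pow, hx2, inv_one], fun w hw => (Commute.inv_left (hxc w hw)).eq⟩ }
  have hZn : ∀ {x z : G}, x ∈ X → z ∈ Z → x * z * x⁻¹ ∈ Z := by
    rintro x z hx ⟨hz, hz2, hzc⟩
    refine ⟨(Subgroup.mem_normalizer_iff.mp (hXW hx) z).mp hz, by rw [conj_pow, hz2]; group, fun w hw => ?_⟩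
    have hw' : x⁻¹ * w * x ∈ W := by simpa using (Subgroup.mem_normalizer_iff.mp (hXW (inv_mem hx)) w).mp hw
    calc x * z * x⁻¹ * w = x * (z * (x⁻¹ * w * x)) * x⁻¹ := by group
      _ = x * ((x⁻¹ * w * x) * z) * x⁻¹ := by rw [hzc _ hw']
      _ = _ := by group
  have hvZ : v ∈ Z := by
    refine ⟨hchar ⟨hTX hvT, Subgroup.mem_centralizer_iff.mpr fun w hw => hXv w (hWX hw)⟩, hv,
      fun w hw => (hXv w (hWX hw)).symm⟩
  haveI : IsMulCommutative Z := ⟨⟨fun x y => Subtype.ext (x.2.2.2 _ y.2.1)⟩⟩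
  haveI : Fintype F := Fintype.ofFinite _
  let act : (↥X ⧸ W') → Z → Z := fun q z => ⟨_, hZn q.out.2 z.2⟩
  have hact : ∀ (x : X) (z : Z), ((act (π x) z : Z) : G) = (x : G) * z * (x : G)⁻¹ := by
    intro x z
    obtain ⟨w, hw⟩ := QuotientGroup.mk_out_eq_mul W' x
    show (((π x).out : X) : G) * (z : G) * (((π x).out : X) : G)⁻¹ = _
    rw [show (π x).out = x * w from hw, Subgroup.coe_mul,
      show (x : G) * (w : X) * (z : G) * ((x : G) * (w : X))⁻¹ = (x : G) * (((w : X) : G) * z * ((w : X) : G)⁻¹) * (x : G)⁻¹ by group,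
      ← z.2.2.2 _ (hmemW.mp w.2), mul_inv_cancel_right]
  open scoped IsMulCommutative in
  let ψ : Z →* Z :=
    { toFun := fun z => ∏ q : F, act (q : ↥X ⧸ W') z
      map_one' := Finset.prod_eq_one fun q _ => Subtype.ext (by simp [act])
      map_mul' := fun z z' => by
        rw [← Finset.prod_mul_distrib]
        refine Finset.prod_congr rfl fun q _ => Subtype.ext ?_
        simp only [act, Subgroup.coe_mul]
        group }
  have hψv : ψ ⟨v, hvZ⟩ = ⟨v, hvZ⟩ := by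
    show ∏ q : F, act (q : ↥X ⧸ W') ⟨v, hvZ⟩ = _
    have hfix : ∀ q : F, act (q : ↥X ⧸ W') ⟨v, hvZ⟩ = ⟨v, hvZ⟩ := fun q =>
      Subtype.ext (show ((q : ↥X ⧸ W').out : G) * v * ((q : ↥X ⧸ W').out : G)⁻¹ = v by
        rw [hXv _ (q : ↥X ⧸ W').out.2, mul_inv_cancel_right])
    simp only [hfix, Finset.prod_const, Finset.card_univ]
    obtain ⟨j, hj⟩ := hFodd
    rw [← Nat.card_eq_fintype_card, hj, pow_succ, pow_mul,
      show (⟨v, hvZ⟩ : Z) ^ 2 = 1 from Subtype.ext hv, one_pow, one_mul]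
  have hψf : ∀ (x : X), π x ∈ F → ∀ z : Z, ψ (act (π x) z) = ψ z := by
    intro x hx z
    show ∏ q : F, act (q : ↥X ⧸ W') (act (π x) z) = ∏ q : F, act (q : ↥X ⧸ W') z
    refine Fintype.prod_equiv (Equiv.mulRight (⟨π x, hx⟩ : F)) _ _ fun q => Subtype.ext ?_
    obtain ⟨y, hy⟩ := QuotientGroup.mk'_surjective W' (q : ↥X ⧸ W')
    show ((act (q : ↥X ⧸ W') (act (π x) z) : Z) : G) = ((act ((q : ↥X ⧸ W') * π x) z : Z) : G)
    rw [← hy, ← map_mul, hact, hact, hact, Subgroup.coe_mul]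
    group
  -- the commutator of the module with the odd section
  set S : Set G := {b | ∃ z ∈ Z, ∃ x : X, π x ∈ F ∧ (x : G) * z * (x : G)⁻¹ * z⁻¹ = b} with hS
  set B := Subgroup.closure S with hB
  have hBker : ∀ b ∈ B, ∃ hb : b ∈ Z, ψ ⟨b, hb⟩ = 1 := by
    have hle : B ≤ (ψ.ker).map Z.subtype := by
      rw [hB, Subgroup.closure_le]
      rintro _ ⟨z, hz, x, hx, rfl⟩
      refine ⟨act (π x) ⟨z, hz⟩ * (⟨z, hz⟩ : Z)⁻¹, ?_, ?_⟩
      · show ψ _ = 1
        rw [map_mul, map_inv, hψf x hx, mul_inv_cancel]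
      · show ((act (π x) ⟨z, hz⟩ : Z) : G) * z⁻¹ = _
        rw [hact]
    intro b hb
    obtain ⟨⟨b', hb'⟩, hk, e⟩ := hle hb
    obtain rfl : b' = b := e
    exact ⟨hb', hk⟩
  have hBn : ∀ t ∈ T, ∀ b ∈ B, t * b * t⁻¹ ∈ B := by
    intro t ht
    have hle : B ≤ B.comap (MulAut.conj t).toMonoidHom := by
      rw [hB, Subgroup.closure_le]
      rintro _ ⟨z, hz, x, hx, rfl⟩
      refine Subgroup.subset_closure ⟨t * z * t⁻¹, hZn (hTX ht) hz, ⟨t, hTX ht⟩ * x * ⟨t, hTX ht⟩⁻¹, ?_, ?_⟩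
      · rw [map_mul, map_mul, map_inv]
        exact (inferInstance : F.Normal).conj_mem _ hx _
      · show t * x * t⁻¹ * (t * z * t⁻¹) * (t * x * t⁻¹)⁻¹ * (t * z * t⁻¹)⁻¹ = t * ((x : G) * z * (x : G)⁻¹ * z⁻¹) * t⁻¹
        group
    exact fun b hb => hle hb
  have hBne : B ≠ ⊥ := by
    intro hb
    apply hek
    have hkF : π ⟨k, hkX⟩ ∈ F := by
      rw [show (⟨k, hkX⟩ : X) = g ^ 2 ^ i from Subtype.ext (by simp [hk]), map_pow]
      exact pow_mem hgF _
    have h1 : k * e * k⁻¹ * e⁻¹ ∈ B :=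
      Subgroup.subset_closure ⟨e, ⟨heW, he2, hecen⟩, ⟨k, hkX⟩, hkF, rfl⟩
    rw [hb, Subgroup.mem_bot, mul_inv_eq_one] at h1
    exact mul_inv_eq_iff_eq_mul.mp h1
  have hBT : B ≤ T := fun b hb => hWT (hBker b hb).1.1
  letI : MulAction T B :=
    { smul := fun t b => ⟨(t : G) * b * (t : G)⁻¹, hBn t t.2 b b.2⟩
      one_smul := fun b => Subtype.ext (show (1 : G) * b * (1 : G)⁻¹ = b by group)
      mul_smul := fun s t b => Subtype.ext (show ((s : G) * t) * b * ((s : G) * t)⁻¹ = s * (t * b * (t : G)⁻¹) * (s : G)⁻¹ by group) }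
  haveI : Nontrivial B := (Subgroup.nontrivial_iff_ne_bot B).mpr hBne
  obtain ⟨j, hj, hcardB⟩ := (hT.to_le hBT).nontrivial_iff_card.mp inferInstance
  have h1fix : (1 : B) ∈ MulAction.fixedPoints T B := fun t => Subtype.ext (show (t : G) * 1 * (t : G)⁻¹ = 1 by group)
  obtain ⟨b, hb, hb1⟩ := hT.exists_fixed_point_of_prime_dvd_card_of_fixed_point B
    (hcardB ▸ dvd_pow_self 2 hj.ne') h1fix
  obtain ⟨hbZ, hbψ⟩ := hBker b b.2
  have hbc : ∀ s ∈ T, (b : G) * s = s * b := fun s hs => by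
    have h := congrArg Subtype.val (hb ⟨s, hs⟩)
    exact (mul_inv_eq_iff_eq_mul.mp h).symm
  rcases huniq b (hBT b.2) hbc hbZ.2.1 with h | h
  · exact hb1 (Subtype.ext h.symm)
  · have h2 : (⟨(b : G), hbZ⟩ : Z) = ⟨v, hvZ⟩ := Subtype.ext h
    rw [h2, hψv] at hbψ
    exact hv1 (congrArg Subtype.val hbψ)

end Cfsg.Agent.Transfer.NormalFour
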