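import Cfsg.Agent.Core.MinimalNormal
import Cfsg.Agent.Core.Cores
import Cfsg.Agent.LocalEven.MaxP

/-! An involution centralizing a subgroup of index two of a Sylow group lies in the two-core. -/

set_option autoImplicit false
set_option linter.style.haveILetI false
set_option linter.unusedSectionVars false

namespace Cfsg.Agent.Transfer.NormalFour

open Cfsg
open scoped commutatorElement

variable {G : Type*} [Group G] [Finite G]

/-- An element of odd order fixing a coset of a centralized subgroup of a two-group centralizes it. -/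
theorem fix_coset {W : Subgroup G} (hW : IsPGroup 2 W) {k x d : G} (hodd : Odd (orderOf k)) (hd : d ∈ W)
    (hkd : k * d = d * k) (h : k * x * k⁻¹ = x * d) : k * x = x * k := by
  have hn : ∀ n : ℕ, k ^ n * x * (k ^ n)⁻¹ = x * d ^ n := by
    intro n
    induction n with
    | zero => simp
    | succ n ih =>
      calc k ^ (n + 1) * x * (k ^ (n + 1))⁻¹ = k * (k ^ n * x * (k ^ n)⁻¹) * k⁻¹ := by rw [pow_succ']; group
        _ = (k * x * k⁻¹) * (k * d ^ n * k⁻¹) := by rw [ih]; group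
        _ = x * d * d ^ n := by rw [h, ((show Commute k d from hkd).pow_right n).eq, mul_inv_cancel_right]
        _ = x * d ^ (n + 1) := by rw [mul_assoc, ← pow_succ']
  have h1 := hn (orderOf k)
  rw [pow_orderOf_eq_one, one_mul, inv_one, mul_one] at h1
  have hd1 : d ^ orderOf k = 1 := mul_eq_left.mp h1.symm
  obtain ⟨i, hi⟩ := IsPGroup.iff_orderOf.mp hW ⟨d, hd⟩
  rw [Subgroup.orderOf_mk] at hi
  have hdvd := orderOf_dvd_of_pow_eq_one hd1
  rw [hi] at hdvd
  have hcop : Nat.Coprime (2 ^ i) (orderOf k) := (Nat.coprime_two_left.mpr hodd).pow_left i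
  have h2 : orderOf d = 1 := by rw [hi]; exact hcop.eq_one_of_dvd hdvd
  rw [orderOf_eq_one_iff.mp h2, mul_one] at h
  exact mul_inv_eq_iff_eq_mul.mp h

theorem commute_of_sq {k x : G} (hodd : Odd (orderOf k)) (h : Commute (k * k) x) : Commute k x := by
  obtain ⟨j, hj⟩ := hodd
  have e : k = (k * k) ^ (j + 1) := by
    rw [← pow_two, ← pow_mul, show 2 * (j + 1) = orderOf k + 1 by omega, pow_succ, pow_orderOf_eq_one, one_mul]
  rw [e]
  exact h.pow_left _

/-- An inverted element of odd order moves a central involution of the two-group. -/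
theorem exists_moved {W : Subgroup G} (hW : IsPGroup 2 W) {a k : G} (ha : a ^ 2 = 1)
    (haW : a ∈ Subgroup.normalizer (W : Set G)) (hkW : k ∈ Subgroup.normalizer (W : Set G))
    (hodd : Odd (orderOf k)) (hinv : a * k * a⁻¹ = k⁻¹)
    (hnc : ¬ ∀ w ∈ W, k * w = w * k)
    (hC : ∀ x ∈ W, ∀ y ∈ W, a * x ≠ x * a → a * y ≠ y * a → a * (x⁻¹ * y) = (x⁻¹ * y) * a) :
    ∃ e ∈ W, e ^ 2 = 1 ∧ (∀ w ∈ W, e * w = w * e) ∧ k * e ≠ e * k := by
  have hainv : a⁻¹ = a := inv_eq_of_mul_eq_one_right (by rw [← pow_two]; exact ha)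
  have hcj : ∀ {g : G}, g ∈ Subgroup.normalizer (W : Set G) → ∀ {w : G}, w ∈ W → g * w * g⁻¹ ∈ W :=
    fun {g} hg {w} hw => (Subgroup.mem_normalizer_iff.mp hg w).mp hw
  set A := W ⊓ Subgroup.centralizer ({a} : Set G) with hA
  have hAi : ∀ {x : G}, x ∈ A ↔ x ∈ W ∧ a * x = x * a := fun {x} => by
    rw [hA, Subgroup.mem_inf, Subgroup.mem_centralizer_singleton_iff]
    exact and_congr_right' ⟨Eq.symm, Eq.symm⟩
  have hA2 : ∀ {x y : G}, x ∈ W → y ∈ W → x ∉ A → y ∉ A → x⁻¹ * y ∈ A := fun {x y} hx hy hxA hyA =>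
    hAi.mpr ⟨mul_mem (inv_mem hx) hy, hC x hx y hy (fun e => hxA (hAi.mpr ⟨hx, e⟩)) fun e => hyA (hAi.mpr ⟨hy, e⟩)⟩
  have hAn : ∀ {x z : G}, x ∈ W → z ∈ A → x * z * x⁻¹ ∈ A := by
    intro x z hx hz
    by_cases hxA : x ∈ A
    · exact mul_mem (mul_mem hxA hz) (inv_mem hxA)
    by_contra hn
    have h1 := hA2 hx (mul_mem (mul_mem hx hz.1) (inv_mem hx)) hxA hn
    rw [show x⁻¹ * (x * z * x⁻¹) = z * x⁻¹ by group] at h1
    exact hxA (inv_mem_iff.mp ((Subgroup.mul_mem_cancel_left _ hz).mp h1))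
  -- the translate
  set B := A.map (MulAut.conj k).toMonoidHom with hB
  have hBi : ∀ {x : G}, x ∈ B ↔ k⁻¹ * x * k ∈ A := fun {x} => by
    constructor
    · rintro ⟨y, hy, rfl⟩
      show k⁻¹ * (k * y * k⁻¹) * k ∈ A
      rwa [show k⁻¹ * (k * y * k⁻¹) * k = y by group]
    · exact fun h => ⟨_, h, show k * (k⁻¹ * x * k) * k⁻¹ = x by group⟩
  have hkinv : k⁻¹ ∈ Subgroup.normalizer (W : Set G) := inv_mem hkW
  have hconjW : ∀ {x : G}, x ∈ W → k⁻¹ * x * k ∈ W := fun hx => by simpa using hcj hkinv hx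
  have hB2 : ∀ {x y : G}, x ∈ W → y ∈ W → x ∉ B → y ∉ B → x⁻¹ * y ∈ B := by
    intro x y hx hy hxB hyB
    rw [hBi] at hxB hyB ⊢
    have h1 := hA2 (hconjW hx) (hconjW hy) hxB hyB
    rwa [show (k⁻¹ * x * k)⁻¹ * (k⁻¹ * y * k) = k⁻¹ * (x⁻¹ * y) * k by group] at h1
  have hBn : ∀ {x z : G}, x ∈ W → z ∈ B → x * z * x⁻¹ ∈ B := by
    intro x z hx hz
    rw [hBi] at hz ⊢
    have h1 := hAn (hconjW hx) hz
    rwa [show k⁻¹ * x * k * (k⁻¹ * z * k) * (k⁻¹ * x * k)⁻¹ = k⁻¹ * (x * z * x⁻¹) * k by group] at h1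
  have hak : a * k⁻¹ = k * a := by
    calc a * k⁻¹ = a * (a * k * a⁻¹) := by rw [hinv]
      _ = (a * a) * k * a⁻¹ := by group
      _ = k * a := by rw [← pow_two, ha, one_mul, hainv]
  have hDk : ∀ {d : G}, d ∈ A → d ∈ B → k * d = d * k := by
    intro d hdA hdB
    have h1 : Commute a d := (hAi.mp hdA).2
    have h2 : a * (k⁻¹ * d * k) = (k⁻¹ * d * k) * a := (hAi.mp (hBi.mp hdB)).2
    have h3 : Commute (k * a * k⁻¹) d := by
      show k * a * k⁻¹ * d = d * (k * a * k⁻¹)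
      calc k * a * k⁻¹ * d = k * (a * (k⁻¹ * d * k)) * k⁻¹ := by group
        _ = k * ((k⁻¹ * d * k) * a) * k⁻¹ := by rw [h2]
        _ = d * (k * a * k⁻¹) := by group
    have e : k * k = (k * a * k⁻¹) * a := by
      calc k * k = k * k * (a * a) := by rw [← pow_two a, ha, mul_one]
        _ = k * (k * a) * a := by group
        _ = k * (a * k⁻¹) * a := by rw [hak]
        _ = _ := by group
    exact (commute_of_sq hodd (e ▸ h3.mul_left h1)).eq
  have hfix : ∀ {x d : G}, d ∈ A → d ∈ B → k * x * k⁻¹ = x * d → k * x = x * k :=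
    fun hdA hdB h => fix_coset hW hodd hdA.1 (hDk hdA hdB) h
  -- the translate differs
  obtain ⟨c₀, hc₀A, hc₀B⟩ : ∃ c ∈ A, c ∉ B := by
    by_contra h
    push Not at h
    apply hnc
    intro w hw
    by_cases hwA : w ∈ A
    · exact hDk hwA (h w hwA)
    · have hkw : k * w * k⁻¹ ∉ A := fun h1 => hwA (by
        have := hBi.mp (h _ h1)
        rwa [show k⁻¹ * (k * w * k⁻¹) * k = w by group] at this)
      have h1 := hA2 hw (hcj hkW hw) hwA hkw
      exact hfix h1 (h _ h1) (by group)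
  have hne : ∀ {x : G}, x ∈ A → x ∉ B → k * x ≠ x * k := fun {x} hxA hxB e => hxB (hBi.mpr (by
    rwa [show k⁻¹ * x * k = x by rw [mul_assoc, ← e, inv_mul_cancel_left]]))
  -- cosets are moved
  have hmove : ∀ {x : G}, x ∈ W → k * x ≠ x * k →
      ¬ ((k⁻¹ * x * k)⁻¹ * (k * x * k⁻¹) ∈ A ∧ (k⁻¹ * x * k)⁻¹ * (k * x * k⁻¹) ∈ B) := by
    intro x hx hxk ⟨hdA, hdB⟩
    apply hxk
    set y := k⁻¹ * x * k with hy
    set d := y⁻¹ * (k * x * k⁻¹) with hd
    have hkd : Commute k d := hDk hdA hdB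
    have h1 : (k * k) * y * (k * k)⁻¹ = y * d := by rw [hd, hy]; group
    have h2 := fix_coset hW (k := k * k) (by
      rw [← pow_two, Nat.Coprime.orderOf_pow (Nat.coprime_two_right.mpr hodd)]; exact hodd) hdA.1
      (hkd.mul_left hkd).eq h1
    have h3 : Commute k y := commute_of_sq hodd h2
    have e : x = y := by
      calc x = k * y * k⁻¹ := by rw [hy]; group
        _ = y := by rw [h3.eq, mul_inv_cancel_right]
    exact e ▸ h3.eq
  -- a representative centralizing the meet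
  have hcomm : ∀ {w d : G}, w ∈ W → d ∈ A → d ∈ B → Commute (w * (k * w * k⁻¹)⁻¹) d := by
    intro w d hw hdA hdB
    have h1 : k * (w⁻¹ * d * w) = (w⁻¹ * d * w) * k :=
      hDk (by simpa using hAn (inv_mem hw) hdA) (by simpa using hBn (inv_mem hw) hdB)
    have h2 : k * d = d * k := hDk hdA hdB
    have e : (k * w * k⁻¹)⁻¹ * d * (k * w * k⁻¹) = w⁻¹ * d * w := by
      calc (k * w * k⁻¹)⁻¹ * d * (k * w * k⁻¹) = k * (w⁻¹ * (k⁻¹ * (d * k)) * w) * k⁻¹ := by group
        _ = k * (w⁻¹ * d * w) * k⁻¹ := by rw [← h2, inv_mul_cancel_left]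
        _ = w⁻¹ * d * w := by rw [h1, mul_inv_cancel_right]
    show w * (k * w * k⁻¹)⁻¹ * d = d * (w * (k * w * k⁻¹)⁻¹)
    calc w * (k * w * k⁻¹)⁻¹ * d = w * ((k * w * k⁻¹)⁻¹ * d * (k * w * k⁻¹)) * (k * w * k⁻¹)⁻¹ := by group
      _ = w * (w⁻¹ * d * w) * (k * w * k⁻¹)⁻¹ := by rw [e]
      _ = _ := by group
  set c₁ := k * c₀ * k⁻¹ with hc₁
  set c₂ := k⁻¹ * c₀ * k with hc₂
  have hc₀W : c₀ ∈ W := hc₀A.1
  have hc₁W : c₁ ∈ W := hcj hkW hc₀W
  have hc₂W : c₂ ∈ W := hconjW hc₀W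
  have hc₁B : c₁ ∈ B := ⟨c₀, hc₀A, rfl⟩
  have hc₁A : c₁ ∉ A := fun h => hne hc₀A hc₀B (by
    have h1 := hDk h hc₁B
    rw [hc₁] at h1
    calc k * c₀ = (k * c₀ * k⁻¹) * k := by group
      _ = k⁻¹ * (k * (k * c₀ * k⁻¹ * k)) := by group
      _ = k⁻¹ * ((k * (k * c₀ * k⁻¹)) * k) := by group
      _ = k⁻¹ * ((k * c₀ * k⁻¹ * k) * k) := by rw [h1]
      _ = c₀ * k := by group)
  have hc₂A : c₂ ∉ A := fun h => hc₀B (hBi.mpr h)
  set ε := c₀ * c₁⁻¹ with hε
  set η := c₂ * c₀⁻¹ with hη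
  have hεA : ε ∉ A := fun h => hc₁A (inv_mem_iff.mp ((Subgroup.mul_mem_cancel_left _ hc₀A).mp h))
  have hηA : η ∉ A := fun h => hc₂A ((Subgroup.mul_mem_cancel_right _ (inv_mem hc₀A)).mp h)
  have hεW : ε ∈ W := mul_mem hc₀W (inv_mem hc₁W)
  have hηW : η ∈ W := mul_mem hc₂W (inv_mem hc₀W)
  set c := η⁻¹ * ε with hcdef
  have hcA : c ∈ A := hA2 hηW hεW hηA hεA
  have hcE : ∀ {d : G}, d ∈ A → d ∈ B → Commute c d := by
    intro d hdA hdB
    have h1 : Commute ε d := hcomm hc₀W hdA hdB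
    have h2 : Commute η d := by
      have h3 := hcomm hc₂W hdA hdB
      rwa [show c₂ * (k * c₂ * k⁻¹)⁻¹ = η by rw [hη, hc₂]; group] at h3
    exact h2.inv_left.mul_left h1
  have hcB : c ∉ B := by
    intro hcB
    have e : c = c₀ * c₂⁻¹ * c₀ * c₁⁻¹ := by rw [hcdef, hη, hε]; group
    apply hmove hc₀W (hne hc₀A hc₀B)
    show c₂⁻¹ * c₁ ∈ A ∧ c₂⁻¹ * c₁ ∈ B
    -- conjugate `c` to compare
    have hcc : c₀⁻¹ * c * c₀ ∈ A ∧ c₀⁻¹ * c * c₀ ∈ B :=
      ⟨by simpa using hAn (inv_mem hc₀W) hcA, by simpa using hBn (inv_mem hc₀W) hcB⟩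
    rw [show c₀⁻¹ * c * c₀ = c₂⁻¹ * c₀ * c₁⁻¹ * c₀ by rw [e]; group] at hcc
    -- `c₀ c₁⁻¹ c₀` lies in the coset of `c₁`
    have h3 : c₀ * c₁⁻¹ * c₀ * c₁⁻¹ ∈ A ∧ c₀ * c₁⁻¹ * c₀ * c₁⁻¹ ∈ B := by
      constructor
      · have := hA2 (inv_mem hεW) hεW (fun h => hεA (inv_mem_iff.mp h)) hεA
        rwa [inv_inv, hε, ← mul_assoc] at this
      · have hεB : ε ∉ B := fun h => hc₀B ((Subgroup.mul_mem_cancel_right _ (inv_mem hc₁B)).mp h)
        have := hB2 (inv_mem hεW) hεW (fun h => hεB (inv_mem_iff.mp h)) hεB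
        rwa [inv_inv, hε, ← mul_assoc] at this
    refine ⟨?_, ?_⟩
    · have := mul_mem hcc.1 (inv_mem (show c₁⁻¹ * (c₀ * c₁⁻¹ * c₀ * c₁⁻¹) * c₁ ∈ A by
        simpa using hAn (inv_mem hc₁W) h3.1))
      convert this using 1
      group
    · have := mul_mem hcc.2 (inv_mem (show c₁⁻¹ * (c₀ * c₁⁻¹ * c₀ * c₁⁻¹) * c₁ ∈ B by
        simpa using hBn (inv_mem hc₁W) h3.2))
      convert this using 1
      group
  -- the generators
  have hcW : c ∈ W := hcA.1
  set c' := k * c * k⁻¹ with hc'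
  set c'' := k⁻¹ * c * k with hc''
  have hc'W : c' ∈ W := hcj hkW hcW
  have hc''W : c'' ∈ W := hconjW hcW
  have hc'B : c' ∈ B := ⟨c, hcA, rfl⟩
  have hck := hne hcA hcB
  have hc'A : c' ∉ A := fun h => hck (by
    have h1 : Commute k c' := hDk h hc'B
    have e : c = c' := by
      calc c = k⁻¹ * (c' * k) := by rw [hc']; group
        _ = c' := by rw [← h1.eq, inv_mul_cancel_left]
    exact e ▸ h1.eq)
  have hc''A : c'' ∉ A := fun h => hcB (hBi.mpr h)
  have hmove' := hmove hcW hck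
  set φ := c⁻¹ * c'⁻¹ * c'' with hφ
  have hφA : φ ∈ A := by
    have := mul_mem (inv_mem hcA) (hA2 hc'W hc''W hc'A hc''A)
    rwa [← mul_assoc] at this
  have hc''B : c'' ∉ B := fun h => hmove' ⟨hA2 hc''W hc'W hc''A hc'A, mul_mem (inv_mem h) hc'B⟩
  have hφB : φ ∈ B := by
    have h1 := hB2 hcW hc''W hcB hc''B
    have h2 : c⁻¹ * c'⁻¹ * c ∈ B := by simpa using hBn (inv_mem hcW) (inv_mem hc'B)
    have := mul_mem h2 h1
    rwa [show c⁻¹ * c'⁻¹ * c * (c⁻¹ * c'') = φ by rw [hφ]; group] at this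
  have hcφ : Commute c φ := hcE hφA hφB
  have hc'E : ∀ {d : G}, d ∈ A → d ∈ B → Commute c' d := fun {d} hdA hdB => by
    have h1 : k * d * k⁻¹ = d := by rw [hDk hdA hdB, mul_inv_cancel_right]
    have h2 := congrArg (MulAut.conj k) (hcE hdA hdB).eq
    simp only [map_mul, MulAut.conj_apply, h1] at h2
    exact h2
  have hc'φ := hc'E hφA hφB
  have hc2A : c * c ∈ A := mul_mem hcA hcA
  have hc2B : c * c ∈ B := by
    have := hB2 (inv_mem hcW) hcW (fun h => hcB (inv_mem_iff.mp h)) hcB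
    rwa [inv_inv] at this
  have hkc2 : Commute k (c * c) := hDk hc2A hc2B
  have hsq' : c' * c' = c * c := by
    calc c' * c' = k * (c * c) * k⁻¹ := by rw [hc']; group
      _ = c * c := by rw [hkc2.eq, mul_inv_cancel_right]
  have hsq'' : c'' * c'' = c * c := by
    calc c'' * c'' = k⁻¹ * ((c * c) * k) := by rw [hc'']; group
      _ = c * c := by rw [← hkc2.eq, inv_mul_cancel_left]
  have hc''eq : c'' = c' * c * φ := by rw [hφ]; group
  have hac : a * c * a⁻¹ = c := by rw [(hAi.mp hcA).2, mul_inv_cancel_right]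
  have haφ : a * φ * a⁻¹ = φ := by rw [(hAi.mp hφA).2, mul_inv_cancel_right]
  have hac' : a * c' * a⁻¹ = c'' := by
    have hai : a * k⁻¹ * a⁻¹ = k := by rw [hak, mul_inv_cancel_right]
    calc a * c' * a⁻¹ = (a * k * a⁻¹) * (a * c * a⁻¹) * (a * k⁻¹ * a⁻¹) := by rw [hc']; group
      _ = c'' := by rw [hinv, hac, hai]
  have hac'' : a * c'' * a⁻¹ = c' := by
    rw [← hac', hainv]
    calc a * (a * c' * a) * a = (a * a) * c' * (a * a) := by group
      _ = c' := by rw [← pow_two, ha, one_mul, mul_one]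
  have hrel : c * φ * (c * φ) = 1 := by
    have h1 : c' = c'' * c * φ := by
      calc c' = a * (c' * c * φ) * a⁻¹ := by rw [← hc''eq, hac'']
        _ = (a * c' * a⁻¹) * (a * c * a⁻¹) * (a * φ * a⁻¹) := by group
        _ = c'' * c * φ := by rw [hac', hac, haφ]
    rw [hc''eq] at h1
    have h2 : c' * (c * φ * (c * φ)) = c' := by
      calc c' * (c * φ * (c * φ)) = c' * c * φ * c * φ := by group
        _ = c' := h1.symm
    exact mul_eq_left.mp h2
  have hcc' : c' * c = c * c' := by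
    have h1 : c' * c * φ * (c' * c * φ) = c * c := by rw [← hc''eq, hsq'']
    have h2 : c' * c * (c' * c) * (φ * φ) = c * c := by
      rw [← h1]
      have h3 : Commute φ (c' * c) := (hc'φ.symm).mul_right hcφ.symm
      calc c' * c * (c' * c) * (φ * φ) = c' * c * ((c' * c) * φ) * φ := by group
        _ = c' * c * (φ * (c' * c)) * φ := by rw [h3.eq]
        _ = _ := by group
    have h4 : c * c * (φ * φ) = 1 := by
      rw [← hrel]
      calc c * c * (φ * φ) = c * (c * φ) * φ := by group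
        _ = c * (φ * c) * φ := by rw [hcφ.eq]
        _ = _ := by group
    have h5 : φ * φ = (c * c)⁻¹ := eq_inv_of_mul_eq_one_right h4
    rw [h5, mul_inv_eq_iff_eq_mul] at h2
    have h6 : c' * c * (c' * c) = c' * c' * (c * c) := by rw [h2, hsq']
    have h7 : c' * (c * c') * c = c' * (c' * c) * c := by
      calc c' * (c * c') * c = c' * c * (c' * c) := by group
        _ = c' * c' * (c * c) := h6
        _ = _ := by group
    exact (mul_left_cancel (mul_right_cancel h7)).symm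
  refine ⟨c⁻¹ * c', mul_mem (inv_mem hcW) hc'W, ?_, ?_, ?_⟩
  · rw [(show Commute c⁻¹ c' from (Commute.symm hcc').inv_left).mul_pow, inv_pow, pow_two, pow_two, hsq', inv_mul_cancel]
  · intro w hw
    have he : ∀ {d : G}, d ∈ A → d ∈ B → Commute (c⁻¹ * c') d := fun hdA hdB =>
      (hcE hdA hdB).inv_left.mul_left (hc'E hdA hdB)
    have hec : Commute (c⁻¹ * c') c := (Commute.refl c).inv_left.mul_left hcc'
    have hec' : Commute (c⁻¹ * c') c' := (Commute.symm hcc').inv_left.mul_left (Commute.refl c')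
    have hinA : ∀ {x : G}, x ∈ A → Commute (c⁻¹ * c') x := fun {x} hx => by
      by_cases hxB : x ∈ B
      · exact he hx hxB
      · have h1 := he (mul_mem (inv_mem hcA) hx) (hB2 hcW hx.1 hcB hxB)
        have := hec.mul_right h1
        rwa [mul_inv_cancel_left] at this
    by_cases hwA : w ∈ A
    · exact (hinA hwA).eq
    · have := hec'.mul_right (hinA (hA2 hc'W hw hc'A hwA))
      rw [mul_inv_cancel_left] at this
      exact this.eq
  · intro hke
    apply hck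
    have h1 : k * c' * k⁻¹ = c := by
      have h2 : k * (c⁻¹ * c') * k⁻¹ = c⁻¹ * c' := by rw [hke, mul_inv_cancel_right]
      calc k * c' * k⁻¹ = c' * (k * (c⁻¹ * c') * k⁻¹) := by rw [hc']; group
        _ = c' * (c⁻¹ * c') := by rw [h2]
        _ = c' * c' * c⁻¹ := by rw [(show Commute c⁻¹ c' from (Commute.symm hcc').inv_left).eq]; exact (mul_assoc _ _ _).symm
        _ = c := by rw [hsq', mul_inv_cancel_right]
    have h3 : Commute (k * k) c := by
      show k * k * c = c * (k * k)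
      calc k * k * c = (k * c' * k⁻¹) * (k * k) := by rw [hc']; group
        _ = c * (k * k) := by rw [h1]
    exact (commute_of_sq hodd h3).eq

end Cfsg.Agent.Transfer.NormalFour
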